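import Cfsg.Agent.H75.TwistGen.Finish
import Cfsg.Agent.H46.TwistD4

/-!
# Two-generation of ³D₄(q)
-/

set_option autoImplicit false
set_option maxRecDepth 100000

namespace Cfsg.Agent.H75.TwistGen

open Cfsg.Lie Cfsg.Agent.H46
open scoped Matrix MatrixGroups

theorem actD4 :
    twAct graphD4 goodD4 [0, 1] (⟨4, by decide⟩ : Fin chevD4.nroots) = goodD4.simpleF (graphD4.rep 0) ∧
    (∀ k ∈ graphD4.orb 0, ∃ r, twAct graphD4 goodD4 [0, 1] r = goodD4.simpleF k) ∧
    (∀ k ∈ graphD4.orb 0, twAct graphD4 goodD4 [0, 1, 0, 1, 0, 1] (goodD4.negF (goodD4.simpleF k)) ∈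
      (graphD4.orb 0).map goodD4.simpleF) ∧
    (∀ k ∈ graphD4.orb 1, twAct graphD4 goodD4 [1] (goodD4.negF (goodD4.simpleF k)) ∈
      (graphD4.orb 1).map goodD4.simpleF) ∧
    twAct graphD4 goodD4 [0] (⟨22, by decide⟩ : Fin chevD4.nroots) = goodD4.simpleF (graphD4.rep 1) ∧
    graphD4.orb 1 = [graphD4.rep 1] ∧ graphD4.len 0 = 3 := by
  decide +kernel

theorem cartD4 : chevD4.cartan 0 4 = -1 ∧ chevD4.cartan 2 4 = 1 ∧ chevD4.cartan 3 4 = 1 := by
  decide +kernel

theorem pairsD4 : chkPairs chevD4 ((graphD4.orb 0).map fun k : Fin chevD4.rank => chevD4.simple k)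
    ((graphD4.orb 0).map fun k => (twAct graphD4 goodD4 [0, 1] (goodD4.simpleF k)).val) 22 = true := by
  decide +kernel

theorem exists_pair_D4 {K : Type*} [Field K] [Fintype K] {q : ℕ} (hq : IsPrimePow q) (f : K →+* K)
    (hf : ∀ x, f x = x ^ q) (hK : Fintype.card K = q ^ 3) :
    ∃ a ∈ twistedD4 K q, ∃ b ∈ twistedD4 K q, twistedD4 K q ≤ Subgroup.closure {a, b} := by
  rw [twistedD4_eq f hf hK]
  obtain ⟨hr', hpre, hneg0, hneg1, hto, horb1, hlen⟩ := actD4
  obtain ⟨o0, o1, i0, i2, i3⟩ := orbD4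
  obtain ⟨ζ, hgen⟩ := IsCyclic.exists_generator (α := Kˣ)
  have h2 : 2 ≤ q := hq.two_le
  have hq3 : q + q ^ 2 + 1 < q ^ 3 := by nlinarith
  have hq1 : q ≤ q ^ 2 := by nlinarith
  have hper : ∀ t : K, f^[graphD4.len 0] t = t := fun t => by rw [hlen]; exact period_D4 f hf hK t
  refine exists_pair okD4 coxD4 f ⟨4, by decide⟩ hr' hpre hper ζ hgen ?_ ?_ ?_
  · intro e
    have := gen_pow_inj hgen (a := 2) (b := 0) (by omega) (by omega) (by simpa using e)
    omega
  · have a0 : graphD4.orbParam f 0 (ζ : K) ⟨0, by decide⟩ = ζ := by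
      rw [GraphData.orbParam, i0, Function.iterate_zero_apply]
    have a2 : graphD4.orbParam f 0 (ζ : K) ⟨2, by decide⟩ = (ζ : K) ^ q := by
      rw [GraphData.orbParam, i2, Function.iterate_one, hf]
    have a3 : graphD4.orbParam f 0 (ζ : K) ⟨3, by decide⟩ = (ζ : K) ^ q ^ 2 := by
      rw [GraphData.orbParam, i3, iterate_qFrob f hf]
    obtain ⟨c0, c2, c3⟩ := cartD4
    intro e
    simp only [chi, o0, List.map_cons, List.map_nil, List.prod_cons, List.prod_nil, mul_one, c0, c2, c3, a0, a2, a3,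
      zpow_one, zpow_neg, ← pow_add] at e
    rw [inv_mul_eq_one₀ ζ.ne_zero] at e
    have := gen_pow_inj hgen (a := 1) (b := q + q ^ 2) (by omega) (by omega) (by rw [pow_one]; exact e)
    omega
  · intro M hM hc0 hw
    have hw3 : nWord graphD4 goodD4 [0, 1, 0, 1, 0, 1] ∈ M := by
      rw [show ([0, 1, 0, 1, 0, 1] : List (Fin graphD4.m)) = [0, 1] ++ ([0, 1] ++ [0, 1]) from rfl,
        nWord_append, nWord_append]
      exact mul_mem hw (mul_mem hw hw)
    obtain ⟨hn0, hr0⟩ := neg_of_act okD4 coxD4 f hc0 hc0 hw3 hneg0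
    have hr1 : nWord graphD4 goodD4 [1] ∈ M := by
      rw [show ([0, 1] : List (Fin graphD4.m)) = [0] ++ [1] from rfl, nWord_append] at hw
      exact (M.mul_mem_cancel_left hr0).1 hw
    have hc1 : Cov (T := graphD4) (G := goodD4) f M 1 := by
      refine cov_of_commutator okD4 coxD4 f hc0 hM hw hr0 ⟨22, by decide⟩ pairsD4 horb1 hto hper (ζ : K) ?_
      intro a ha b hb e
      rw [hlen] at ha hb
      simp only [iterate_qFrob f hf] at e
      have hlt : ∀ a < 3, q ^ a < Fintype.card K - 1 := fun a ha => by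
        have := Nat.pow_le_pow_right (n := q) (by omega) (show a ≤ 2 by omega)
        omega
      exact Nat.pow_right_injective h2 (gen_pow_inj hgen (hlt a ha) (hlt b hb) e)
    obtain ⟨hn1, -⟩ := neg_of_act okD4 coxD4 f hc1 hc1 hr1 hneg1
    intro i
    change Fin 2 at i
    obtain rfl | rfl : i = 0 ∨ i = 1 := by omega
    exacts [⟨hc0, hn0⟩, ⟨hc1, hn1⟩]

end Cfsg.Agent.H75.TwistGen
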