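import Cfsg.Agent.H75.TwistGen.Finish
import Cfsg.Agent.H46.TwistE6

/-!
# Two-generation of ²E₆(q)
-/

set_option autoImplicit false
set_option maxRecDepth 100000

namespace Cfsg.Agent.H75.TwistGen

open Cfsg.Lie Cfsg.Agent.H46
open scoped Matrix MatrixGroups

section

variable {D : ChevalleyDatum} {T : GraphData D} {G : Good D} {F : Type*} [Field F] [Fintype F]
  (h : T.Ok G) (C : CoxData G) (f : F →+* F)

include h C

/-- The derivation for four classes of lengths `2, 2, 1, 1`. -/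
theorem exists_pair_four {j₀ j₁ j₂ j₃ : Fin T.m} (hall : ∀ i : Fin T.m, i = j₀ ∨ i = j₁ ∨ i = j₂ ∨ i = j₃)
    {w : List (Fin T.m)} (r' : Fin D.nroots) (hr' : twAct T G w r' = G.simpleF (T.rep j₀))
    (hpre : ∀ k ∈ T.orb j₀, ∃ r : Fin D.nroots, twAct T G w r = G.simpleF k)
    (hneg : ∀ i : Fin T.m, ∀ k ∈ T.orb i,
      twAct T G (w ++ w ++ w ++ w ++ w ++ w) (G.negF (G.simpleF k)) ∈ (T.orb i).map G.simpleF)
    (hU : ∀ k ∈ T.orb j₁, twAct T G ([j₀] ++ w ++ w ++ [j₀] ++ w) (G.simpleF k) ∈ (T.orb j₀).map G.simpleF)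
    (k₀ : Fin D.nroots) (hto2 : twAct T G ([j₁] ++ [j₀]) k₀ = G.simpleF (T.rep j₂))
    (hto3 : twAct T G (w ++ [j₁] ++ [j₀]) k₀ = G.simpleF (T.rep j₃))
    (horb2 : T.orb j₂ = [T.rep j₂]) (horb3 : T.orb j₃ = [T.rep j₃])
    (hpairs : chkPairs D ((T.orb j₀).map fun k : Fin D.rank => D.simple k)
      ((T.orb j₀).map fun k => (twAct T G (w ++ [j₁]) (G.simpleF k)).val) k₀ = true)
    (hper : ∀ t : F, f^[T.len j₀] t = t) (ζ : Fˣ) (hgen : ∀ x : Fˣ, x ∈ Subgroup.zpowers ζ)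
    (hsq : (ζ : F) ^ 2 ≠ 1) (hβ : chi T f j₀ (ζ : F) r' ≠ 1)
    (hdist : ∀ a < T.len j₀, ∀ b < T.len j₀, f^[a] (ζ : F) = f^[b] (ζ : F) → a = b) :
    ∃ a ∈ (T.tdata h C f).G1, ∃ b ∈ (T.tdata h C f).G1, (T.tdata h C f).G1 ≤ Subgroup.closure {a, b} := by
  refine exists_pair h C f r' hr' hpre hper ζ hgen hsq hβ fun M hM hc0 hw => ?_
  have hw6 : nWord T G (w ++ w ++ w ++ w ++ w ++ w) ∈ M := by
    simp only [nWord_append]
    exact mul_mem (mul_mem (mul_mem (mul_mem (mul_mem hw hw) hw) hw) hw) hw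
  obtain ⟨hn0, hr0⟩ := neg_of_act h C f hc0 hc0 hw6 (hneg j₀)
  have hc1 : Cov (G := G) f M j₁ := by
    refine cov_of_act h C f hc0 (L := [j₀] ++ w ++ w ++ [j₀] ++ w) ?_ hU
    simp only [nWord_append]
    exact mul_mem (mul_mem (mul_mem (mul_mem hr0 hw) hw) hr0) hw
  obtain ⟨hn1, hr1⟩ := neg_of_act h C f hc1 hc1 hw6 (hneg j₁)
  have hwu : nWord T G (w ++ [j₁]) ∈ M := by rw [nWord_append]; exact mul_mem hw hr1
  have hc2 : Cov (G := G) f M j₂ := by
    refine cov_of_commutator h C f hc0 hM hwu (L₃ := [j₁] ++ [j₀]) ?_ k₀ hpairs horb2 hto2 hper (ζ : F) hdist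
    rw [nWord_append]; exact mul_mem hr1 hr0
  have hc3 : Cov (G := G) f M j₃ := by
    refine cov_of_commutator h C f hc0 hM hwu (L₃ := w ++ [j₁] ++ [j₀]) ?_ k₀ hpairs horb3 hto3 hper (ζ : F) hdist
    rw [nWord_append]; exact mul_mem hwu hr0
  obtain ⟨hn2, -⟩ := neg_of_act h C f hc2 hc2 hw6 (hneg j₂)
  obtain ⟨hn3, -⟩ := neg_of_act h C f hc3 hc3 hw6 (hneg j₃)
  intro i
  rcases hall i with rfl | rfl | rfl | rfl
  exacts [⟨hc0, hn0⟩, ⟨hc1, hn1⟩, ⟨hc2, hn2⟩, ⟨hc3, hn3⟩]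

end

/-- The product of the four twisted reflections. -/
def coxWordE6 : List (Fin graphE6.m) := [0, 1, 2, 3]

theorem allE6 : ∀ i : Fin graphE6.m, i = 0 ∨ i = 1 ∨ i = 2 ∨ i = 3 := by decide +kernel

theorem seedE6 :
    twAct graphE6 goodE6 coxWordE6 (⟨10, by decide⟩ : Fin chevE6.nroots) = goodE6.simpleF (graphE6.rep 0) ∧
    (∀ k ∈ graphE6.orb 0, ∃ r, twAct graphE6 goodE6 coxWordE6 r = goodE6.simpleF k) ∧
    chevE6.cartan 0 10 = -1 ∧ chevE6.cartan 5 10 = 0 ∧ graphE6.len 0 = 2 := by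
  decide +kernel

theorem negE6 : ∀ i : Fin graphE6.m, ∀ k ∈ graphE6.orb i,
    twAct graphE6 goodE6 (coxWordE6 ++ coxWordE6 ++ coxWordE6 ++ coxWordE6 ++ coxWordE6 ++ coxWordE6) (goodE6.negF (goodE6.simpleF k)) ∈ (graphE6.orb i).map goodE6.simpleF := by
  decide +kernel

theorem spreadE6 :
    (∀ k ∈ graphE6.orb 1, twAct graphE6 goodE6 ([0] ++ coxWordE6 ++ coxWordE6 ++ [0] ++ coxWordE6)
      (goodE6.simpleF k) ∈ (graphE6.orb 0).map goodE6.simpleF) ∧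
    twAct graphE6 goodE6 ([1] ++ [0]) (⟨60, by decide⟩ : Fin chevE6.nroots) = goodE6.simpleF (graphE6.rep 2) ∧
    twAct graphE6 goodE6 (coxWordE6 ++ [1] ++ [0]) (⟨60, by decide⟩ : Fin chevE6.nroots) =
      goodE6.simpleF (graphE6.rep 3) ∧
    graphE6.orb 2 = [graphE6.rep 2] ∧ graphE6.orb 3 = [graphE6.rep 3] := by
  decide +kernel

theorem pairsE6 : chkPairs chevE6 ((graphE6.orb 0).map fun k : Fin chevE6.rank => chevE6.simple k)
    ((graphE6.orb 0).map fun k => (twAct graphE6 goodE6 (coxWordE6 ++ [1]) (goodE6.simpleF k)).val) 60 = true := by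
  decide +kernel

theorem exists_pair_E6 {K : Type*} [Field K] [Fintype K] {q : ℕ} (hq : IsPrimePow q) (f : K →+* K)
    (hf : ∀ x, f x = x ^ q) (hK : Fintype.card K = q ^ 2) :
    ∃ a ∈ twistedE6 K q, ∃ b ∈ twistedE6 K q, twistedE6 K q ≤ Subgroup.closure {a, b} := by
  rw [twistedE6_eq f hf hK]
  obtain ⟨hr', hpre, hc0v, hc5v, hlen⟩ := seedE6
  obtain ⟨hU, hto2, hto3, horb2, horb3⟩ := spreadE6
  obtain ⟨o0, o1, o2, o3⟩ := orbE6
  obtain ⟨i0, i5, i2, i4⟩ := idxE6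
  obtain ⟨ζ, hgen⟩ := IsCyclic.exists_generator (α := Kˣ)
  have h2 : 2 ≤ q := hq.two_le
  have hq2 : q + 2 ≤ q ^ 2 := by nlinarith
  have hper : ∀ t : K, f^[graphE6.len 0] t = t := fun t => by rw [hlen]; exact period_E6 f hf hK t
  refine exists_pair_four okE6 coxE6 f allE6 ⟨10, by decide⟩ hr' hpre negE6 hU ⟨60, by decide⟩ hto2 hto3 horb2
    horb3 pairsE6 hper ζ hgen ?_ ?_ ?_
  · intro e
    have := gen_pow_inj hgen (a := 2) (b := 0) (by omega) (by omega) (by simpa using e)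
    omega
  · have a0 : graphE6.orbParam f 0 (ζ : K) ⟨0, by decide⟩ = ζ := by
      rw [GraphData.orbParam, i0, Function.iterate_zero_apply]
    intro e
    simp only [chi, o0, List.map_cons, List.map_nil, List.prod_cons, List.prod_nil, mul_one, hc0v, hc5v, a0,
      zpow_one, zpow_neg, zpow_zero, inv_eq_one] at e
    have := gen_pow_inj hgen (a := 1) (b := 0) (by omega) (by omega) (by simpa using e)
    omega
  · intro a ha b hb e
    rw [hlen] at ha hb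
    simp only [iterate_qFrob f hf] at e
    have hlt : ∀ a < 2, q ^ a < Fintype.card K - 1 := fun a ha => by
      have := Nat.pow_le_pow_right (n := q) (by omega) (show a ≤ 1 by omega)
      rw [pow_one] at this
      omega
    exact Nat.pow_right_injective h2 (gen_pow_inj hgen (hlt a ha) (hlt b hb) e)

end Cfsg.Agent.H75.TwistGen
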